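import Cfsg.Agent.Zassenhaus.AbelianKernel

/-!
# An abelian kernel with at least `d + 2` exceptional characters is impossible
-/

set_option autoImplicit false
set_option linter.style.haveILetI false
set_option linter.style.openClassical false
set_option linter.unusedSectionVars false

noncomputable section

open scoped ComplexConjugate Classical
open Cfsg.Agent.CharExt (KTriv)
open Cfsg.Agent.Zassenhaus

namespace Cfsg.Agent.SuzukiZ

universe u

variable {G : Type u} [Group G] [Fintype G] {M : Subgroup G} [Fintype M] {L : Subgroup M} [L.Normal]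

/-- Every column of the exceptional family has a zero. -/
theorem exists_zero_in_column_linear (hS : TISetup M L)
    (hbig : L.index + 2 ≤ Fintype.card (Fam M L))
    (hlin : ∀ β : Cfsg.IrrCharacter M, KTriv L β → deg β = 1)
    {ε : ℂ} (hε : ε = 1 ∨ ε = -1) {f : Fam M L → Cfsg.IrrCharacter G} (hf : Function.Injective f)
    (hdiff : ∀ χ ξ : Fam M L,
      Cfsg.indFun M ((χ.1 : M → ℂ) - (ξ.1 : M → ℂ)) = ε • ((f χ : G → ℂ) - (f ξ : G → ℂ)))
    (χ : Fam M L) : ∃ ξ, ξ ≠ χ ∧ mult (f ξ) χ.1 = 0 := by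
  by_contra hne
  push Not at hne
  set β := Char.trivialIrr M with hβdef
  have hβ : KTriv L β := fun k _ => by simp [hβdef, Char.trivialIrr]
  have hone : ∑ ψ : Cfsg.IrrCharacter G, mult ψ χ.1 * mult ψ β = 1 := by
    have h := ind_inner_exc hS χ.2.1 β
    rw [if_neg (show ¬ χ.1 = β from fun e => χ.2.1 (e ▸ hβ)), χ.2.2, hlin β hβ, zero_add,
      Nat.cast_one, mul_one,
      div_self (Nat.cast_ne_zero.2 Subgroup.index_ne_zero_of_finite)] at h
    exact_mod_cast h
  have hcol := column_family hS χ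
  set S := (Finset.univ.erase χ).image f with hS'
  have hScard : S.card + 1 = Fintype.card (Fam M L) := by
    rw [hS', Finset.card_image_of_injective _ hf, Finset.card_erase_of_mem (Finset.mem_univ _),
      Finset.card_univ]
    omega
  have hge : ∀ ψ ∈ S, 1 ≤ mult ψ χ.1 := fun ψ hψ => by
    obtain ⟨ξ, hξ, rfl⟩ := Finset.mem_image.1 hψ
    exact Nat.one_le_iff_ne_zero.2 (hne ξ (Finset.ne_of_mem_erase hξ))
  have hout : ∀ ψ, ψ ∉ S → mult ψ χ.1 = 0 := by
    intro ψ hψ
    by_contra hc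
    have h1 := Finset.sum_le_sum_of_subset (f := fun x => mult x χ.1 * mult x χ.1)
      (Finset.subset_univ (insert ψ S))
    rw [Finset.sum_insert hψ, hcol] at h1
    have h2 : S.card ≤ ∑ x ∈ S, mult x χ.1 * mult x χ.1 := by
      rw [Finset.card_eq_sum_ones]
      exact Finset.sum_le_sum fun x hx => Nat.mul_le_mul (hge x hx) (hge x hx)
    have : 1 ≤ mult ψ χ.1 * mult ψ χ.1 := Nat.one_le_iff_ne_zero.2 (mul_ne_zero hc hc)
    omega
  have hconst : ∀ ψ, ψ ∈ S → ∀ ψ' ∈ S, mult ψ β = mult ψ' β := by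
    intro ψ hψ ψ' hψ'
    obtain ⟨ξ, -, rfl⟩ := Finset.mem_image.1 hψ
    obtain ⟨ξ', -, rfl⟩ := Finset.mem_image.1 hψ'
    have h := congrArg (fun F => Cfsg.classInner F (Cfsg.indFun M (β : M → ℂ))) (hdiff ξ ξ')
    simp only [Char.classInner_smul_left, Char.classInner_sub_left, inner_ind] at h
    rw [ind_inner_supp hS (fun x hx => by
      simp [eq_zero_off hS ξ.2.1 x hx, eq_zero_off hS ξ'.2.1 x hx]) (Char.irr_isClassFunction β.2),
      Char.classInner_sub_left, Char.classInner_irrCharacter, Char.classInner_irrCharacter,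
      if_neg (show ¬ ξ.1 = β from fun e => ξ.2.1 (e ▸ hβ)),
      if_neg (show ¬ ξ'.1 = β from fun e => ξ'.2.1 (e ▸ hβ))] at h
    simp [deg_spec, ξ.2.2, ξ'.2.2] at h
    rcases h with e | e
    · rcases hε with e' | e' <;> rw [e'] at e <;> norm_num at e
    · exact_mod_cast sub_eq_zero.1 e
  rw [← Finset.sum_subset (Finset.subset_univ S) fun ψ _ hψ => by rw [hout ψ hψ, zero_mul]] at hone
  obtain ⟨ψ₀, hψ₀⟩ : S.Nonempty := by rw [← Finset.card_pos]; omega
  by_cases h0 : mult ψ₀ β = 0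
  · rw [Finset.sum_eq_zero fun ψ hψ => by rw [hconst ψ hψ ψ₀ hψ₀, h0, mul_zero]] at hone
    omega
  · have h2 : S.card ≤ ∑ x ∈ S, mult x χ.1 * mult x β := by
      rw [Finset.card_eq_sum_ones]
      exact Finset.sum_le_sum fun x hx => Nat.mul_le_mul (hge x hx)
        (Nat.one_le_iff_ne_zero.2 (by rw [hconst x hx ψ₀ hψ₀]; exact h0))
    have := Subgroup.index_ne_zero_of_finite (H := L)
    omega

theorem eps_eq_one_of_zero (hS : TISetup M L)
    {ε : ℂ} (hε : ε = 1 ∨ ε = -1) {f : Fam M L → Cfsg.IrrCharacter G} (hf : Function.Injective f)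
    (hdiff : ∀ χ ξ : Fam M L,
      Cfsg.indFun M ((χ.1 : M → ℂ) - (ξ.1 : M → ℂ)) = ε • ((f χ : G → ℂ) - (f ξ : G → ℂ)))
    (hzero : ∀ χ : Fam M L, ∃ ξ, ξ ≠ χ ∧ mult (f ξ) χ.1 = 0) (χ : Fam M L) : ε = 1 := by
  refine hε.resolve_right fun h => ?_
  obtain ⟨ξ, hξ, h0⟩ := hzero χ
  have e := mult_sub hε hdiff (f ξ) χ ξ
  rw [h0, if_neg (fun e => hξ (hf e)), if_pos rfl, h] at e
  have e' : ((mult (f ξ) ξ.1 + 1 : ℕ) : ℂ) = 0 := by
    push_cast at e ⊢
    linear_combination -e
  exact absurd (Nat.cast_eq_zero.1 e') (Nat.succ_ne_zero _)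

/-- An abelian kernel with many exceptional characters is impossible. -/
theorem abelian_kernel_false (hS : TISetup M L) (hfam : ∀ η : Cfsg.IrrCharacter M, ¬ KTriv L η → deg η = L.index)
    (hbig : L.index + 2 ≤ Fintype.card (Fam M L)) (hodd : Odd L.index) (hd3 : 3 ≤ L.index)
    (hlin : ∀ β : Cfsg.IrrCharacter M, KTriv L β → deg β = 1)
    (hreal : ∀ g : M, g ∉ L → IsConj (g : G) (g : G)⁻¹) : False := by
  set d := L.index with hd
  set k := Fintype.card (Fam M L) with hk
  obtain ⟨χ, χ', hne⟩ := Fintype.one_lt_card_iff.1 (show 1 < Fintype.card (Fam M L) by omega)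
  obtain ⟨ε, f, hε, hf, hdiff⟩ := exists_family hS ⟨χ, χ', hne⟩
  have hzero := exists_zero_in_column_linear hS hbig hlin hε hf hdiff
  obtain rfl := eps_eq_one_of_zero hS hε hf hdiff hzero χ
  -- differences of multiplicities
  have hA : ∀ (ξ ξ' : Fam M L) (η : Cfsg.IrrCharacter M),
      (mult (f ξ) η : ℂ) - mult (f ξ') η = (if ξ.1 = η then 1 else 0) - if ξ'.1 = η then 1 else 0 := by
    intro ξ ξ' η
    have h := congrArg (fun F => Cfsg.classInner F (Cfsg.indFun M (η : M → ℂ))) (hdiff ξ ξ')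
    simp only [one_smul, Char.classInner_sub_left, inner_ind] at h
    rw [← h, ind_inner_supp hS (fun x hx => by
      simp [eq_zero_off hS ξ.2.1 x hx, eq_zero_off hS ξ'.2.1 x hx]) (Char.irr_isClassFunction η.2),
      Char.classInner_sub_left, Char.classInner_irrCharacter, Char.classInner_irrCharacter]
    simp [deg_spec, ξ.2.2, ξ'.2.2]
  have hoff : ∀ ξ η : Fam M L, ξ ≠ η → mult (f ξ) η.1 = 0 := by
    intro ξ η hne'
    obtain ⟨ξ', hξ', h0⟩ := hzero η
    have h := hA ξ ξ' η.1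
    rw [h0, if_neg (fun e => hne' (Subtype.ext e)), if_neg (fun e => hξ' (Subtype.ext e))] at h
    simpa using h
  have hdiag : ∀ ξ : Fam M L, mult (f ξ) ξ.1 = 1 := by
    intro ξ
    obtain ⟨ξ', hξ', h0⟩ := hzero ξ
    have h := hA ξ ξ' ξ.1
    rw [h0, if_pos rfl, if_neg (fun e => hξ' (Subtype.ext e))] at h
    norm_num at h
    exact_mod_cast h
  -- each induced linear character meets each exceptional one once
  have hone : ∀ β : Cfsg.IrrCharacter M, KTriv L β → ∀ η : Fam M L,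
      ∑ ψ : Cfsg.IrrCharacter G, mult ψ η.1 * mult ψ β = 1 := by
    intro β hβ η
    have h := ind_inner_exc hS η.2.1 β
    rw [if_neg (show ¬ η.1 = β from fun e => η.2.1 (e ▸ hβ)), η.2.2, hlin β hβ, zero_add, Nat.cast_one, mul_one,
      div_self (Nat.cast_ne_zero.2 Subgroup.index_ne_zero_of_finite)] at h
    exact_mod_cast h
  have hkt : ∀ (ξ : Fam M L) (β : Cfsg.IrrCharacter M), KTriv L β → mult (f ξ) β = 0 := by
    intro ξ β hβ
    by_contra hc
    have hall : ∀ ξ' : Fam M L, 1 ≤ mult (f ξ') β := by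
      intro ξ'
      have h := hA ξ' ξ β
      rw [if_neg (show ¬ ξ'.1 = β from fun e => ξ'.2.1 (e ▸ hβ)), if_neg (show ¬ ξ.1 = β from fun e => ξ.2.1 (e ▸ hβ)), sub_self, sub_eq_zero] at h
      rw [Nat.cast_injective h]
      exact Nat.one_le_iff_ne_zero.2 hc
    have hdeg : ∀ ξ' : Fam M L, d + 1 ≤ deg (f ξ') := by
      intro ξ'
      rw [deg_eq_sum_mult (M := M) (f ξ')]
      calc d + 1 ≤ mult (f ξ') ξ'.1 * deg ξ'.1 + mult (f ξ') β * deg β := by
            rw [hdiag, ξ'.2.2, hlin β hβ, one_mul, mul_one]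
            have := hall ξ'
            omega
        _ = ∑ η ∈ ({ξ'.1, β} : Finset (Cfsg.IrrCharacter M)), mult (f ξ') η * deg η := by
            rw [Finset.sum_pair (fun e : ξ'.1 = β => ξ'.2.1 (e ▸ hβ))]
        _ ≤ _ := Finset.sum_le_sum_of_subset (Finset.subset_univ _)
    have htot : k * (d + 1) ≤ M.index := by
      have h := index_mul_deg (G := G) β
      rw [hlin β hβ, mul_one] at h
      rw [h]
      calc k * (d + 1) = ∑ ξ' : Fam M L, (d + 1) := by simp [hk]
        _ ≤ ∑ ξ' : Fam M L, mult (f ξ') β * deg (f ξ') := Finset.sum_le_sum fun ξ' _ =>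
            (hdeg ξ').trans (Nat.le_mul_of_pos_left _ (hall ξ'))
        _ = ∑ ψ ∈ Finset.univ.image f, mult ψ β * deg ψ :=
            (Finset.sum_image (f := fun ψ => mult ψ β * deg ψ) fun a _ b _ e => hf e).symm
        _ ≤ _ := Finset.sum_le_sum_of_subset (Finset.subset_univ _)
    have hm : k * d + 1 = Nat.card L := Cfsg.Agent.Zassenhaus.card_eq_mul hS hfam
    rw [hS.index_eq, ← hm] at htot
    have : k * (d + 1) = k * d + k := by ring
    omega
  -- the remaining characters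
  set R := Finset.univ.image f with hR
  have hconst : ∀ ψ, ψ ∉ R → ∀ η η' : Fam M L, mult ψ η.1 = mult ψ η'.1 := by
    intro ψ hψ η η'
    have h := mult_sub (Or.inl rfl) hdiff ψ η η'
    rw [if_neg (fun e => hψ (Finset.mem_image.2 ⟨η, Finset.mem_univ _, e.symm⟩)),
      if_neg (fun e => hψ (Finset.mem_image.2 ⟨η', Finset.mem_univ _, e.symm⟩)), sub_self, mul_zero,
      sub_eq_zero] at h
    exact Nat.cast_injective h
  have hrest : ∑ ψ ∈ Rᶜ, mult ψ χ.1 * mult ψ χ.1 = d := by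
    have h := column_family hS χ
    rw [← Finset.sum_add_sum_compl R] at h
    have h1 : ∑ ψ ∈ R, mult ψ χ.1 * mult ψ χ.1 = 1 := by
      rw [hR, Finset.sum_image fun a _ b _ e => hf e, Finset.sum_eq_single χ]
      · rw [hdiag]
      · intro ξ _ hξ
        rw [hoff ξ χ hξ, mul_zero]
      · exact fun hn => absurd (Finset.mem_univ _) hn
    omega
  set W := Rᶜ.filter fun ψ => mult ψ χ.1 ≠ 0 with hW
  obtain ⟨Z, hZW, hZ⟩ : ∃ Z ∈ W, ∀ β : Cfsg.IrrCharacter M, KTriv L β → mult Z β = 0 := by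
    by_contra hcon
    push Not at hcon
    choose g hg1 hg2 using hcon
    set KT := Finset.univ.filter fun β : Cfsg.IrrCharacter M => KTriv L β with hKT
    have hprod : ∀ ψ ψ' : Cfsg.IrrCharacter G, ∀ β, KTriv L β → mult ψ β ≠ 0 → mult ψ' β ≠ 0 →
        mult ψ χ.1 ≠ 0 → mult ψ' χ.1 ≠ 0 → ψ = ψ' ∧ mult ψ χ.1 = 1 := by
      intro ψ ψ' β hβ h1 h2 h3 h4
      have hs := hone β hβ χ
      have p1 : 1 ≤ mult ψ χ.1 * mult ψ β := Nat.one_le_iff_ne_zero.2 (mul_ne_zero h3 h1)
      have p2 : 1 ≤ mult ψ' χ.1 * mult ψ' β := Nat.one_le_iff_ne_zero.2 (mul_ne_zero h4 h2)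
      refine ⟨?_, ?_⟩
      · by_contra hne'
        have h5 := Finset.sum_le_sum_of_subset (f := fun x => mult x χ.1 * mult x β)
          (Finset.subset_univ ({ψ, ψ'} : Finset (Cfsg.IrrCharacter G)))
        rw [Finset.sum_pair hne', hs] at h5
        omega
      · have h5 := Finset.single_le_sum (f := fun x => mult x χ.1 * mult x β)
          (fun _ _ => Nat.zero_le _) (Finset.mem_univ ψ)
        rw [hs] at h5
        exact (mul_eq_one.1 (le_antisymm h5 p1)).1
    have hWmem : ∀ {ψ}, ψ ∈ W → mult ψ χ.1 ≠ 0 := fun h => (Finset.mem_filter.1 h).2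
    have hWcard : W.card = d := by
      rw [← hrest, Finset.card_eq_sum_ones, ← Finset.sum_filter_of_ne (s := Rᶜ)
        (p := fun ψ => mult ψ χ.1 ≠ 0) (f := fun ψ => mult ψ χ.1 * mult ψ χ.1)
        (fun ψ _ h e => h (by rw [e, mul_zero]))]
      exact Finset.sum_congr rfl fun ψ hψ => by
        rw [(hprod ψ ψ _ (hg1 ψ hψ) (hg2 ψ hψ) (hg2 ψ hψ) (hWmem hψ) (hWmem hψ)).2]
    have hinj : ∀ ψ (h : ψ ∈ W) ψ' (h' : ψ' ∈ W), g ψ h = g ψ' h' → ψ = ψ' := fun ψ h ψ' h' e =>
      (hprod ψ ψ' _ (hg1 ψ h) (hg2 ψ h) (e ▸ hg2 ψ' h') (hWmem h) (hWmem h')).1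
    have himg : W.attach.image (fun ψ => g ψ.1 ψ.2) = KT := by
      refine Finset.eq_of_subset_of_card_le ?_ ?_
      · intro β hβ
        obtain ⟨ψ, -, rfl⟩ := Finset.mem_image.1 hβ
        exact Finset.mem_filter.2 ⟨Finset.mem_univ _, hg1 _ _⟩
      · rw [Finset.card_image_of_injective _ fun a b e => Subtype.ext (hinj _ _ _ _ e),
          Finset.card_attach, hWcard, hKT, card_kTriv hlin]
    obtain ⟨β₁, hβ₁, hβ₁ne⟩ := Finset.exists_mem_ne (show 1 < KT.card by
      rw [hKT, card_kTriv hlin]; omega) (Char.trivialIrr M)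
    have hβK : KTriv L β₁ := (Finset.mem_filter.1 hβ₁).2
    let β₂ : Cfsg.IrrCharacter M := ⟨_, Char.isIrrCharacter_conjFun β₁.2⟩
    have hval : ∀ x, (β₂ : M → ℂ) x = (β₁ : M → ℂ) x⁻¹ := fun x => by
      rw [Char.irr_inv β₁.2]
    have hβ₂K : KTriv L β₂ := fun x hx => by
      rw [hval, hval, inv_one, hβK _ (L.inv_mem hx)]
    have hne12 : β₂ ≠ β₁ := by
      intro e
      apply hβ₁ne
      obtain ⟨φ, hφ⟩ := Char.exists_monoidHom_of_degree_one (Char.isCharacter_of_irr β₁.2)
        (by rw [deg_spec, hlin β₁ hβK, Nat.cast_one])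
      refine Subtype.ext (funext fun x => ?_)
      show (β₁ : M → ℂ) x = 1
      have hsymm : (β₁ : M → ℂ) x⁻¹ = (β₁ : M → ℂ) x := by
        rw [← hval, e]
      rw [hφ, hφ, map_inv, Units.val_inj] at hsymm
      have h2 : φ x ^ 2 = 1 := by
        rw [sq]
        nth_rewrite 1 [← hsymm]
        rw [inv_mul_cancel]
      have hdpow : φ x ^ d = 1 := by
        rw [← map_pow, ← Units.val_inj, ← hφ, hd, hβK _ (Subgroup.pow_index_mem L x), deg_spec,
          hlin β₁ hβK, Nat.cast_one, Units.val_one]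
      obtain ⟨r, hr⟩ := hodd
      rw [hr, pow_succ, pow_mul, h2, one_pow, one_mul] at hdpow
      rw [hφ, hdpow, Units.val_one]
    have hsym : ∀ ψ : Cfsg.IrrCharacter G, mult ψ β₂ = mult ψ β₁ := by
      intro ψ
      have h : (mult ψ β₂ : ℂ) = conj (mult ψ β₁ : ℂ) := by
        rw [← mult_spec, ← mult_spec]
        simp only [Cfsg.classInner, map_mul, map_inv₀, map_natCast, map_sum]
        congr 1
        rw [← Finset.sum_filter_add_sum_filter_not Finset.univ (fun x : M => x ∈ L),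
          ← Finset.sum_filter_add_sum_filter_not (Finset.univ : Finset M) (fun x : M => x ∈ L)
            (fun x => conj ((ψ : G → ℂ) x) * conj (conj ((β₁ : M → ℂ) x)))]
        congr 1
        · -- on the kernel both sums are the sum of the values
          rw [Finset.sum_congr rfl (g := fun x : M => (ψ : G → ℂ) x) fun x hx => ?_,
            Finset.sum_congr rfl (g := fun x : M => (ψ : G → ℂ) (x⁻¹ : M))
              (f := fun x : M => conj ((ψ : G → ℂ) x) * conj (conj ((β₁ : M → ℂ) x))) fun x hx => ?_]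
          · exact Finset.sum_equiv (Equiv.inv M) (fun x => by simp) (fun x _ => by simp)
          · rw [Complex.conj_conj, hβK _ (Finset.mem_filter.1 hx).2, deg_spec, hlin β₁ hβK,
              Nat.cast_one, mul_one, Subgroup.coe_inv, Char.irr_inv ψ.2]
          · rw [hval, hβK _ (L.inv_mem (Finset.mem_filter.1 hx).2), deg_spec, hlin β₁ hβK,
              Nat.cast_one, map_one, mul_one]
        · refine Finset.sum_congr rfl fun x hx => ?_
          have hr : (ψ : G → ℂ) ((x : G)⁻¹) = (ψ : G → ℂ) x :=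
            (Char.isClassFunction_eq_of_isConj (Char.irr_isClassFunction ψ.2)
              (hreal x (Finset.mem_filter.1 hx).2)).symm
          rw [hval, Char.irr_inv β₁.2, ← Char.irr_inv ψ.2, hr]
      rw [map_natCast] at h
      exact Nat.cast_injective h
    obtain ⟨ψ₁, -, e₁⟩ := Finset.mem_image.1 (himg.symm ▸ hβ₁)
    obtain ⟨ψ₂, -, e₂⟩ := Finset.mem_image.1
      (show β₂ ∈ W.attach.image (fun ψ => g ψ.1 ψ.2) by
        rw [himg]; exact Finset.mem_filter.2 ⟨Finset.mem_univ _, hβ₂K⟩)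
    have h1 := hg2 ψ₁.1 ψ₁.2
    have h2 := hg2 ψ₂.1 ψ₂.2
    rw [e₁] at h1
    rw [e₂, hsym] at h2
    have hψ := (hprod ψ₁.1 ψ₂.1 β₁ hβK h1 h2 (hWmem ψ₁.2) (hWmem ψ₂.2)).1
    apply hne12
    rw [← e₁, ← e₂]
    congr 1 <;> exact hψ.symm
  -- its degree does not divide the group order
  obtain ⟨hZR, hb⟩ := Finset.mem_filter.1 hZW
  set b := mult Z χ.1 with hb'
  have hdegZ : deg Z = b * d * k := by
    rw [deg_eq_sum_mult (M := M) Z, ← Finset.sum_filter_add_sum_filter_not Finset.univ (KTriv L),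
      Finset.sum_eq_zero fun β hβ => by rw [hZ β (Finset.mem_filter.1 hβ).2, zero_mul], zero_add,
      Finset.sum_congr rfl (g := fun _ => b * d) fun η hη => ?_, Finset.sum_const, smul_eq_mul, hk,
      Fintype.card_subtype]
    · rw [mul_comm]
      congr 1
      congr 1
      ext η
      simp only [Finset.mem_filter, Finset.mem_univ, true_and]
      exact ⟨fun h => ⟨h, hfam η h⟩, fun h => h.1⟩
    · have hη' := (Finset.mem_filter.1 hη).2
      rw [hfam η hη', hb', hconst Z (Finset.mem_compl.1 hZR) χ ⟨η, hη', hfam η hη'⟩]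
  have hm : k * d + 1 = Nat.card L := Cfsg.Agent.Zassenhaus.card_eq_mul hS hfam
  have hdvd : k * (b * d) ∣ (k * d + 2) * ((k * d + 1) * d) := by
    have h := deg_dvd_card Z
    rw [hdegZ, ← Subgroup.index_mul_card M, hS.index_eq, ← Subgroup.card_mul_index L, ← hd, ← hm] at h
    rw [mul_comm k (b * d)]
    convert h using 1
  have hk2 : k ∣ 2 := by
    have h1 : k * d ∣ (k * d + 2) * ((k * d + 1) * d) := dvd_trans (Nat.mul_dvd_mul_left k (dvd_mul_left d b)) hdvd
    rw [show (k * d + 2) * ((k * d + 1) * d) = ((k * d + 2) * (k * d + 1)) * d by ring] at h1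
    have h2 := Nat.dvd_of_mul_dvd_mul_right (by omega) h1
    rw [show (k * d + 2) * (k * d + 1) = k * (d * (k * d + 3)) + 2 by ring] at h2
    exact (Nat.dvd_add_right (dvd_mul_right k _)).1 h2
  have := Nat.le_of_dvd two_pos hk2
  omega
end Cfsg.Agent.SuzukiZ
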